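import Mathlib
import Cfsg.Prelude.Def_Classical
import Cfsg.Agent.Lib.Classical.Witt.Index
import Cfsg.Agent.Lib.Classical.Witt.Disc
import Cfsg.Agent.S0833

/-!
# Plus type versus discriminant for symmetric bilinear forms over finite fields of odd order
-/

set_option autoImplicit false

namespace Cfsg.Agent.Lib.Classical.Witt.Lagrangian

open QuadraticMap Module Cfsg Matrix Cfsg.Agent.Lib.Linalg.OrthModels
open Cfsg.Agent.Lib.Classical.Witt.Disc Cfsg.Agent.Lib.Classical.Witt.Index

universe u

variable {F : Type u} [Field F]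

/-- Existence of a Lagrangian for a symmetric nondegenerate form, `2 ≠ 0`, in dimension `2m`:
it is equivalent to `(-1)^m det(Gram)` being a square. -/
theorem exists_lagrangian_iff [Fintype F] (h2 : (2 : F) ≠ 0) {V : Type*} [AddCommGroup V] [Module F V]
    [FiniteDimensional F V] (B : LinearMap.BilinForm F V) (hS : B.IsSymm) (hB : B.Nondegenerate)
    {m : ℕ} (hm : 1 ≤ m) (hV : finrank F V = 2 * m) {ι : Type*} [Fintype ι] [DecidableEq ι]
    (b : Basis ι F V) :
    (∃ X : Submodule F V, finrank F X = m ∧ ∀ x ∈ X, ∀ y ∈ X, B x y = 0) ↔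
      IsSquare ((-1 : F) ^ m * (Matrix.of fun i j => B (b i) (b j)).det) := by
  classical
  have hc2 : ringChar F ≠ 2 := by
    intro hc
    apply h2
    have := ringChar.Nat.cast_ringChar (R := F)
    rw [hc] at this
    exact_mod_cast this
  let Q : QuadraticForm F V := B.toQuadraticMap
  have hQ : ∀ v, Q v = B v v := fun v => rfl
  have hpolar : ∀ u v, polar Q u v = 2 * B u v := by
    intro u v
    simp only [polar, hQ, map_add, LinearMap.add_apply]
    rw [hS.eq v u]
    ring
  have hnd : (polarBilin Q).Nondegenerate := by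
    apply Cfsg.Agent.Lib.Classical.Witt.Hyp.nondeg_of_polarNondeg
    intro x hx
    apply hB.1 x
    intro y
    have := hx y
    rw [hpolar] at this
    exact (mul_eq_zero.1 this).resolve_left h2
  have hcard : Fintype.card ι = 2 * m := by
    rw [← hV, Module.finrank_eq_card_basis b]
  -- Gram of `Q` in terms of `B`
  have hgram : (Matrix.of fun i j => polar Q (b i) (b j)) = (2 : F) • (Matrix.of fun i j => B (b i) (b j)) := by
    ext i j
    simp [hpolar]
  have hdet : (Matrix.of fun i j => polar Q (b i) (b j)).det = ((2 : F) ^ m) ^ 2 * (Matrix.of fun i j => B (b i) (b j)).det := by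
    rw [hgram, Matrix.det_smul, hcard, mul_comm 2 m, pow_mul]
  have h2m : (2 : F) ^ m ≠ 0 := pow_ne_zero _ h2
  have hmm : (-1 : F) ^ m * (-1 : F) ^ m = 1 := by
    rw [← mul_pow]
    simp
  rcases exists_isometry_plus_or_minus hm hV Q hnd with ⟨g, hg⟩ | ⟨ζ, hζ, g, hg⟩
  · obtain ⟨u, hu, h⟩ := det_gram_polar_change (plusQ m F) (b.map g) (Pi.basisFun F (Fin m ⊕ Fin m))
    rw [det_gram_plus] at h
    have h3 : (Matrix.of fun i j => polar (plusQ m F) ((b.map g) i) ((b.map g) j)) = (Matrix.of fun i j => polar Q (b i) (b j)) := by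
      ext i j
      simp only [Module.Basis.map_apply, Matrix.of_apply, polar, ← map_add, hg]
    rw [h3, hdet] at h
    have hs : IsSquare ((-1 : F) ^ m * (Matrix.of fun i j => B (b i) (b j)).det) := by
      refine ⟨u / 2 ^ m, ?_⟩
      have h4 : (Matrix.of fun i j => B (b i) (b j)).det = u ^ 2 * (-1) ^ m / ((2 : F) ^ m) ^ 2 := by
        rw [eq_div_iff (pow_ne_zero _ h2m), mul_comm, h]
      rw [h4]
      generalize (-1 : F) ^ m = t at hmm
      field_simp
      linear_combination hmm
    refine ⟨fun _ => hs, fun _ => ?_⟩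
    refine ⟨(Cfsg.Agent.Lib.Classical.Witt.PlusForm.coordSpace m F).map g.symm.toLinearMap, ?_, ?_⟩
    · rw [LinearEquiv.finrank_map_eq, Cfsg.Agent.Lib.Classical.Witt.PlusForm.finrank_coordSpace]
    · rintro _ ⟨x, hx, rfl⟩ _ ⟨y, hy, rfl⟩
      have h5 : polar Q (g.symm x) (g.symm y) = polar (plusQ m F) x y := by
        simp only [polar, ← hg, map_add, LinearEquiv.apply_symm_apply]
      have hts := Cfsg.Agent.Lib.Classical.Witt.PlusForm.isTS_coordSpace m F
      have h6 : polar (plusQ m F) x y = 0 := by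
        simp only [polar]
        have e : ∀ z, plusQ m F z = Cfsg.Agent.Lib.Classical.Witt.PlusForm.plusForm m F z := by
          intro z
          rw [plusQ_apply, Cfsg.Agent.Lib.Classical.Witt.PlusForm.plusForm_apply]
        rw [e, e, e, hts _ (Submodule.add_mem _ hx hy), hts _ hx, hts _ hy]
        ring
      have h7 := hpolar (g.symm x) (g.symm y)
      rw [h5, h6] at h7
      exact (mul_eq_zero.1 h7.symm).resolve_left h2
  · have hac := anisotropic_of_no_root hζ
    have hdisc := not_isSquare_disc h2 hac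
    obtain ⟨u, hu, h⟩ := det_gram_polar_change (minusQ (m - 1) F 1 ζ) (b.map g) (Pi.basisFun F ((Fin (m - 1) ⊕ Fin (m - 1)) ⊕ Fin 2))
    rw [det_gram_minus] at h
    have h3 : (Matrix.of fun i j => polar (minusQ (m - 1) F 1 ζ) ((b.map g) i) ((b.map g) j)) = (Matrix.of fun i j => polar Q (b i) (b j)) := by
      ext i j
      simp only [Module.Basis.map_apply, Matrix.of_apply, polar, ← map_add, hg]
    rw [h3, hdet] at h
    have hns : ¬ IsSquare ((-1 : F) ^ m * (Matrix.of fun i j => B (b i) (b j)).det) := by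
      rintro ⟨s, hs⟩
      apply hdisc
      refine ⟨s * 2 ^ m / u, ?_⟩
      obtain ⟨k, rfl⟩ : ∃ k, m = k + 1 := ⟨m - 1, by omega⟩
      rw [show k + 1 - 1 = k by omega] at h
      have hkk : (-1 : F) ^ k * (-1 : F) ^ k = 1 := by
        rw [← mul_pow]
        simp
      have e1 : (2 ^ (k + 1)) ^ 2 * (s * s) = - (u ^ 2 * (4 * ζ - 1 ^ 2)) := by
        rw [← hs, pow_succ (-1 : F) k]
        linear_combination ((-1 : F) ^ k * (-1)) * h + (- (u ^ 2 * (4 * ζ - 1 ^ 2))) * hkk
      field_simp
      linear_combination (-1 : F) * e1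
    refine ⟨?_, fun h => absurd h hns⟩
    rintro ⟨X, hX, hts⟩
    exfalso
    apply no_ts_minus hm hac (X.map g.toLinearMap)
    · rintro _ ⟨v, hv, rfl⟩
      simp only [LinearEquiv.coe_coe]
      rw [hg, hQ]
      exact hts v hv v hv
    · rw [LinearEquiv.finrank_map_eq, hX]

open TensorProduct in
/-- Gram determinant of a tensor product form. -/
theorem det_gram_tmul {U W : Type*} [AddCommGroup U] [Module F U] [AddCommGroup W] [Module F W]
    (B₁ : LinearMap.BilinForm F U) (B₂ : LinearMap.BilinForm F W)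
    {ι κ : Type*} [Fintype ι] [DecidableEq ι] [Fintype κ] [DecidableEq κ] (b₁ : Basis ι F U) (b₂ : Basis κ F W) :
    (Matrix.of fun i j => (B₁.tmul B₂) ((b₁.tensorProduct b₂) i) ((b₁.tensorProduct b₂) j)).det =
      (Matrix.of fun i j => B₁ (b₁ i) (b₁ j)).det ^ Fintype.card κ *
        (Matrix.of fun i j => B₂ (b₂ i) (b₂ j)).det ^ Fintype.card ι := by
  rw [← Matrix.det_kronecker]
  congr 1
  ext ⟨i, i'⟩ ⟨j, j'⟩
  simp only [Matrix.of_apply, Matrix.kronecker_apply, Module.Basis.tensorProduct_apply']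
  change B₂ (b₂ i') (b₂ j') * B₁ (b₁ i) (b₁ j) = _
  ring

open TensorProduct in
/-- The tensor product of nondegenerate symmetric forms is nondegenerate and symmetric. -/
theorem nondegenerate_tmul {U W : Type*} [AddCommGroup U] [Module F U] [FiniteDimensional F U]
    [AddCommGroup W] [Module F W] [FiniteDimensional F W]
    (B₁ : LinearMap.BilinForm F U) (B₂ : LinearMap.BilinForm F W)
    (h₁ : B₁.Nondegenerate) (h₂ : B₂.Nondegenerate) (hS₁ : B₁.IsSymm) (hS₂ : B₂.IsSymm) :
    (B₁.tmul B₂).IsSymm ∧ (B₁.tmul B₂).Nondegenerate := by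
  have hsymm : (B₁.tmul B₂).IsSymm :=
    LinearMap.IsSymm.tmul (LinearMap.BilinForm.isSymm_iff.1 hS₁) (LinearMap.BilinForm.isSymm_iff.1 hS₂)
  have hsep := Cfsg.Agent.S0833.sepLeft B₁ B₂ h₁ h₂
  refine ⟨hsymm, hsep, ?_⟩
  intro y hy
  exact hsep y fun x => by
    have := hsymm.eq y x
    simp only [RingHom.id_apply] at this
    exact this.trans (hy x)

end Cfsg.Agent.Lib.Classical.Witt.Lagrangian
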