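import Mathlib
import Cfsg.Agent.Lib.Classical.Witt.InvolChar2Omega

/-!
# Representatives of the classes of involutions of `O(Q)` in characteristic two

For a family `z` of linearly independent vectors that are pairwise orthogonal we build the involutions
`x ↦ x + ∑ B(x, z_j) z_j` (norm one family) and `x ↦ x + ∑ (B(x, u_i) w_i + B(x, w_i) u_i)`
(totally singular family).
-/

set_option autoImplicit false
set_option linter.unusedSectionVars false
set_option linter.unusedVariables false

namespace Cfsg.Agent.Lib.Classical.Witt.InvolRep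

open Module QuadraticMap Matrix
open Cfsg.Agent.Lib.Classical.Orth.Basic
open Cfsg.Agent.Lib.Classical.Witt.InvolChar2
open Cfsg.Agent.Lib.Classical.Symp.InvolChar2

variable {ι : Type} [Fintype ι] [DecidableEq ι] {F : Type*} [Field F] [CharP F 2]
variable {Q : QuadraticForm F (ι → F)}

/-- The isometry `1 + N`. -/
theorem exists_of_N (N : (ι → F) →ₗ[F] (ι → F)) (h1 : ∀ x, N (N x) = 0)
    (h2 : ∀ x, Q (N x) = polar Q x (N x)) :
    ∃ t : ↥(Cfsg.isometryGroup F (⇑Q)), t * t = 1 ∧ ∀ x, act t x = x + N x := by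
  have h20 := two_eq_zero' F
  have hinv : Function.Involutive (LinearMap.id + N : (ι → F) →ₗ[F] (ι → F)) := by
    intro x
    simp only [LinearMap.add_apply, LinearMap.id_apply, map_add, h1, add_zero]
    have := add_self_zero (F := F) (N x)
    rw [add_assoc, this, add_zero]
  let e : (ι → F) ≃ₗ[F] (ι → F) := LinearEquiv.ofInvolutive _ hinv
  have he : ∀ x, e x = x + N x := fun x => rfl
  have hmem : Cfsg.Agent.Lib.Linalg.Bridge.glOfEquiv e ∈ Cfsg.isometryGroup F (⇑Q) := by
    refine (mem_isometryGroup_iff Q _).2 fun x => ?_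
    rw [Cfsg.Agent.Lib.Linalg.Bridge.glOfEquiv_mulVec, he, Q_add, h2]
    have : polar (⇑Q) x (N x) + polar (⇑Q) x (N x) = 0 := by
      rw [← two_mul, h20, zero_mul]
    linear_combination this
  refine ⟨⟨_, hmem⟩, ?_, fun x => Cfsg.Agent.Lib.Linalg.Bridge.glOfEquiv_mulVec e x⟩
  apply ext_act
  intro x
  have hact : ∀ y, act (⟨_, hmem⟩ : ↥(Cfsg.isometryGroup F (⇑Q))) y = e y :=
    fun y => Cfsg.Agent.Lib.Linalg.Bridge.glOfEquiv_mulVec e y
  rw [act_mul, hact, hact, act_one]
  exact hinv x

/-- `N` built from two families. -/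
noncomputable def famN {κ : Type*} [Fintype κ] (Q : QuadraticForm F (ι → F)) (v w : κ → ι → F) :
    (ι → F) →ₗ[F] (ι → F) :=
  ∑ j, ((polarBilin Q).flip (v j)).smulRight (w j)

theorem famN_apply {κ : Type*} [Fintype κ] (v w : κ → ι → F) (x : ι → F) :
    famN Q v w x = ∑ j, polar (⇑Q) x (v j) • w j := by
  simp [famN, LinearMap.sum_apply, LinearMap.flip_apply, polarBilin_apply_apply]

theorem polar_sum_smul_left {κ : Type*} [Fintype κ] (a : κ → F) (w : κ → ι → F) (y : ι → F) :
    polar (⇑Q) (∑ j, a j • w j) y = ∑ j, a j * polar (⇑Q) (w j) y := by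
  rw [← polarBilin_apply_apply, map_sum, LinearMap.sum_apply]
  simp [polarBilin_apply_apply]

theorem polar_sum_smul_right {κ : Type*} [Fintype κ] (a : κ → F) (w : κ → ι → F) (y : ι → F) :
    polar (⇑Q) y (∑ j, a j • w j) = ∑ j, a j * polar (⇑Q) y (w j) := by
  rw [polar_comm, polar_sum_smul_left]
  simp [polar_comm]

/-- `Q` of an orthogonal sum. -/
theorem Q_sum_orth {κ : Type*} [Fintype κ] [DecidableEq κ] (z : κ → ι → F) (h : ∀ i j, polar (⇑Q) (z i) (z j) = 0)
    (a : κ → F) : Q (∑ j, a j • z j) = ∑ j, a j * a j * Q (z j) := by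
  classical
  have key : ∀ s : Finset κ, Q (∑ j ∈ s, a j • z j) = ∑ j ∈ s, a j * a j * Q (z j) := by
    intro s
    induction s using Finset.induction_on with
    | empty => simp
    | insert b s hb ih =>
      rw [Finset.sum_insert hb, Finset.sum_insert hb, Q_add, ih, Q_smul]
      have : polar (⇑Q) (a b • z b) (∑ j ∈ s, a j • z j) = 0 := by
        rw [← polarBilin_apply_apply, map_sum]
        refine Finset.sum_eq_zero fun j _ => ?_
        simp [polarBilin_apply_apply, polar_smul_left, polar_smul_right, h]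
      rw [this, add_zero]
  exact key Finset.univ

section Rank

variable {κ : Type*} [Fintype κ] [DecidableEq κ]

/-- The pairing with a linearly independent family is surjective. -/
theorem pairing_surjective (hQ : (polarBilin Q).Nondegenerate) {v : κ → ι → F}
    (hv : LinearIndependent F v) (a : κ → F) : ∃ x : ι → F, ∀ j, polar (⇑Q) x (v j) = a j := by
  classical
  let Φ : (ι → F) →ₗ[F] (κ → F) := LinearMap.pi fun j => (polarBilin Q).flip (v j)
  have hΦ : ∀ x j, Φ x j = polar (⇑Q) x (v j) := by
    intro x j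
    simp [Φ, LinearMap.flip_apply, polarBilin_apply_apply]
  have hs : LinearMap.range Φ = ⊤ := by
    by_contra hne
    obtain ⟨f, hf, hfr⟩ := Submodule.exists_dual_map_eq_bot_of_lt_top (lt_top_iff_ne_top.2 hne) inferInstance
    apply hf
    have hc : ∀ j, f (Pi.single j 1) = 0 := by
      have hall : ∀ x : ι → F, f (Φ x) = 0 := by
        intro x
        have : f (Φ x) ∈ (LinearMap.range Φ).map f :=
          Submodule.mem_map_of_mem (LinearMap.mem_range_self Φ x)
        rw [hfr] at this
        exact this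
      have hsum : ∀ x : ι → F, polar (⇑Q) x (∑ j, f (Pi.single j 1) • v j) = 0 := by
        intro x
        rw [polar_sum_smul_right, ← hall x]
        conv_rhs => rw [pi_eq_sum_univ' (Φ x)]
        simp only [map_sum, map_smul, smul_eq_mul, hΦ]
        refine Finset.sum_congr rfl fun j _ => mul_comm _ _
      have h0 : ∑ j, f (Pi.single j 1) • v j = 0 := by
        apply hQ.2
        intro x
        rw [polarBilin_apply_apply]
        exact hsum x
      exact Fintype.linearIndependent_iff.1 hv _ h0
    ext j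
    simpa using hc j
  obtain ⟨x, hx⟩ := LinearMap.range_eq_top.1 hs a
  exact ⟨x, fun j => (hΦ x j).symm.trans (congrFun hx j)⟩

/-- Rank of `famN`. -/
theorem finrank_range_famN (hQ : (polarBilin Q).Nondegenerate) {v w : κ → ι → F}
    (hv : LinearIndependent F v) (hw : LinearIndependent F w) :
    finrank F (LinearMap.range (famN Q v w)) = Fintype.card κ := by
  classical
  let Ψ : (κ → F) →ₗ[F] (ι → F) := Fintype.linearCombination F w
  have hΨ : ∀ a, Ψ a = ∑ j, a j • w j := fun a => by
    simp [Ψ, Fintype.linearCombination_apply]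
  have hinj : Function.Injective Ψ := by
    rw [← LinearMap.ker_eq_bot, LinearMap.ker_eq_bot']
    intro a ha
    rw [hΨ] at ha
    funext j
    exact Fintype.linearIndependent_iff.1 hw a ha j
  have hr : LinearMap.range (famN Q v w) = LinearMap.range Ψ := by
    apply le_antisymm
    · rintro _ ⟨x, rfl⟩
      refine ⟨fun j => polar (⇑Q) x (v j), ?_⟩
      rw [hΨ, famN_apply]
    · rintro _ ⟨a, rfl⟩
      obtain ⟨x, hx⟩ := pairing_surjective hQ hv a
      refine ⟨x, ?_⟩
      rw [hΨ, famN_apply]
      exact Finset.sum_congr rfl fun j _ => by rw [hx]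
  rw [hr, LinearMap.finrank_range_of_inj hinj, Module.finrank_fintype_fun_eq_card]

end Rank

section Reps

variable {κ : Type*} [Fintype κ] [DecidableEq κ]

/-- Involution from an orthogonal family of norm one. -/
theorem exists_invol_norm_one (hQ : (polarBilin Q).Nondegenerate) {z : κ → ι → F}
    (hz : LinearIndependent F z) (h0 : ∀ i j, polar (⇑Q) (z i) (z j) = 0) (h1 : ∀ i, Q (z i) = 1) :
    ∃ t : ↥(Cfsg.isometryGroup F (⇑Q)), t * t = 1 ∧
      (((t : GL ι F) : Matrix ι ι F) - 1).rank = Fintype.card κ ∧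
      ∀ x, polar (⇑Q) x (act t x) = ∑ j, polar (⇑Q) x (z j) * polar (⇑Q) x (z j) := by
  have h20 := two_eq_zero' F
  have hNN : ∀ x, famN Q z z (famN Q z z x) = 0 := by
    intro x
    rw [famN_apply]
    refine Finset.sum_eq_zero fun j _ => ?_
    rw [famN_apply, polar_sum_smul_left]
    simp [h0]
  have hval : ∀ x, polar (⇑Q) x (famN Q z z x) = ∑ j, polar (⇑Q) x (z j) * polar (⇑Q) x (z j) := by
    intro x
    rw [famN_apply, polar_sum_smul_right]
  obtain ⟨t, htt, hact⟩ := exists_of_N (Q := Q) (famN Q z z) hNN (fun x => by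
    rw [hval, famN_apply, Q_sum_orth z h0]
    simp [h1])
  refine ⟨t, htt, ?_, fun x => ?_⟩
  · have he : nM t = famN Q z z := by
      refine LinearMap.ext fun x => ?_
      rw [nM_apply, hact]
      simp
    rw [rank_eq_finrank, he, finrank_range_famN hQ hz hz]
  · rw [hact, polar_add_right, polar_self_eq, h20, zero_mul, zero_add, hval]

/-- Involution from a totally singular family. -/
theorem exists_invol_ts (hQ : (polarBilin Q).Nondegenerate) {k : Type*} [Fintype k] [DecidableEq k]
    {z : k ⊕ k → ι → F} (hz : LinearIndependent F z) (h0 : ∀ i j, polar (⇑Q) (z i) (z j) = 0)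
    (h1 : ∀ i, Q (z i) = 0) :
    ∃ t : ↥(Cfsg.isometryGroup F (⇑Q)), t * t = 1 ∧
      (((t : GL ι F) : Matrix ι ι F) - 1).rank = 2 * Fintype.card k ∧
      ∀ x, polar (⇑Q) x (act t x) = 0 := by
  have h20 := two_eq_zero' F
  have hz' : LinearIndependent F (z ∘ Sum.swap) := hz.comp _ Sum.swap_leftInverse.injective
  have hNN : ∀ x, famN Q z (z ∘ Sum.swap) (famN Q z (z ∘ Sum.swap) x) = 0 := by
    intro x
    rw [famN_apply]
    refine Finset.sum_eq_zero fun j _ => ?_
    rw [famN_apply, polar_sum_smul_left]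
    simp [h0]
  have hval : ∀ x, polar (⇑Q) x (famN Q z (z ∘ Sum.swap) x) = 0 := by
    intro x
    rw [famN_apply, polar_sum_smul_right, Fintype.sum_sum_type, ← Finset.sum_add_distrib]
    refine Finset.sum_eq_zero fun j _ => ?_
    simp only [Function.comp, Sum.swap_inl, Sum.swap_inr]
    rw [mul_comm (polar (⇑Q) x (z (Sum.inr j)))]
    rw [← two_mul, h20, zero_mul]
  have hQN : ∀ x, Q (famN Q z (z ∘ Sum.swap) x) = 0 := by
    intro x
    rw [famN_apply, Q_sum_orth (z ∘ Sum.swap) (fun i j => h0 _ _)]
    simp [h1]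
  obtain ⟨t, htt, hact⟩ := exists_of_N (Q := Q) (famN Q z (z ∘ Sum.swap)) hNN (fun x => by
    rw [hval, hQN])
  refine ⟨t, htt, ?_, fun x => ?_⟩
  · have he : nM t = famN Q z (z ∘ Sum.swap) := by
      refine LinearMap.ext fun x => ?_
      rw [nM_apply, hact]
      simp
    rw [rank_eq_finrank, he, finrank_range_famN hQ hz hz', Fintype.card_sum, two_mul]
  · rw [hact, polar_add_right, polar_self_eq, h20, zero_mul, zero_add, hval]

end Reps

end Cfsg.Agent.Lib.Classical.Witt.InvolRep
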