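import Mathlib
import Cfsg.Agent.Lib.Classical.Witt.InvolRep

/-!
# Counting the classes of involutions of `O(Q)` and `Ω(Q)` in characteristic two
-/

set_option autoImplicit false
set_option linter.unusedSectionVars false
set_option linter.unusedVariables false

namespace Cfsg.Agent.Lib.Classical.Witt.InvolCount

open Module QuadraticMap Matrix
open Cfsg.Agent.Lib.Classical.Orth.Basic
open Cfsg.Agent.Lib.Classical.Witt.InvolChar2
open Cfsg.Agent.Lib.Classical.Symp.InvolChar2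
open Cfsg.Agent.Lib.Classical.Witt.InvolRep

variable {ι : Type} [Fintype ι] [DecidableEq ι] {F : Type*} [Field F] [Fintype F] [CharP F 2]
variable {Q : QuadraticForm F (ι → F)}

/-- The rank invariant. -/
noncomputable def rk (g : ↥(Cfsg.isometryGroup F (⇑Q))) : ℕ := (((g : GL ι F) : Matrix ι ι F) - 1).rank

/-- The alternating type. -/
def IsAltT (t : ↥(Cfsg.isometryGroup F (⇑Q))) : Prop := ∀ x, polar (⇑Q) x (act t x) = 0

theorem rk_one : rk (1 : ↥(Cfsg.isometryGroup F (⇑Q))) = 0 := by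
  simp [rk]

theorem orderOf_eq_two_iff {G : Type*} [Group G] {t : G} : orderOf t = 2 ↔ t * t = 1 ∧ t ≠ 1 := by
  constructor
  · intro h
    constructor
    · rw [← pow_two, ← h, pow_orderOf_eq_one]
    · rintro rfl
      rw [orderOf_one] at h
      omega
  · rintro ⟨h1, h2⟩
    have : Fact (Nat.Prime 2) := ⟨Nat.prime_two⟩
    exact orderOf_eq_prime (by rwa [pow_two]) h2

theorem isAltT_of_conj {g t s : ↥(Cfsg.isometryGroup F (⇑Q))} (h : g * t * g⁻¹ = s) (ht : IsAltT t) : IsAltT s := by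
  intro x
  have h1 : act s (act g (act g⁻¹ x)) = act g (act t (act g⁻¹ x)) := by
    subst h
    rw [act_mul, act_mul, act_act_inv]
  have h2 : act g (act g⁻¹ x) = x := act_act_inv g x
  rw [h2] at h1
  rw [h1]
  have h3 := polar_act g (act g⁻¹ x) (act t (act g⁻¹ x))
  rw [h2] at h3
  rw [h3]
  exact ht _

/-- Conjugacy in `O` from the invariants. -/
theorem isConj_iff_inv (hQ : (polarBilin Q).Nondegenerate) (t s : ↥(Cfsg.isometryGroup F (⇑Q)))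
    (ht : t * t = 1) (hs : s * s = 1) : IsConj t s ↔ rk t = rk s ∧ (IsAltT t ↔ IsAltT s) := by
  constructor
  · intro h
    obtain ⟨g, hg⟩ := isConj_iff.1 h
    refine ⟨rank_eq_of_conj (g := (g : GL ι F)) (t := (t : GL ι F)) (s := (s : GL ι F)) ?_, isAltT_of_conj hg, ?_⟩
    · rw [← hg]
      rfl
    · apply isAltT_of_conj (g := g⁻¹)
      rw [← hg]
      group
  · rintro ⟨h1, h2⟩
    exact isConj_of_type hQ t s ht hs h1 h2

/-- Invariants are bounded. -/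
theorem two_mul_rk_le (hQ : (polarBilin Q).Nondegenerate) {t : ↥(Cfsg.isometryGroup F (⇑Q))}
    (ht : t * t = 1) : 2 * rk t ≤ Fintype.card ι := by
  have := two_mul_finrank_range_le hQ (isQuadN_nM ht).adj
  rwa [Module.finrank_fintype_fun_eq_card] at this

theorem even_rk_of_alt (hQ : (polarBilin Q).Nondegenerate) {t : ↥(Cfsg.isometryGroup F (⇑Q))}
    (ht : t * t = 1) (ha : IsAltT t) : Even (rk t) := by
  refine even_of_alt_type hQ (polar_isAlt Q) (isQuadN_nM ht).adj fun x => ?_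
  rw [polarBilin_apply_apply, polar_nM]
  exact ha x

theorem rk_pos {t : ↥(Cfsg.isometryGroup F (⇑Q))} (h : t ≠ 1) : 0 < rk t := by
  rw [Nat.pos_iff_ne_zero]
  intro h0
  apply h
  have h1 : ((t : GL ι F) : Matrix ι ι F) - 1 = 0 := by
    have h2 : LinearMap.range (((t : GL ι F) : Matrix ι ι F) - 1).mulVecLin = ⊥ :=
      Submodule.finrank_eq_zero.mp h0
    rw [LinearMap.range_eq_bot] at h2
    exact Matrix.ext_iff_mulVec.mpr (fun v => by
      rw [Matrix.zero_mulVec]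
      exact LinearMap.congr_fun h2 v)
  apply Subtype.ext
  apply Units.ext
  exact sub_eq_zero.1 h1

theorem ne_one_of_rk {t : ↥(Cfsg.isometryGroup F (⇑Q))} (h : 0 < rk t) : t ≠ 1 := by
  rintro rfl
  rw [rk_one] at h
  omega

section Reps

/-- Non-alternating involution of rank `s`. -/
theorem exists_rep_nonalt (hQ : (polarBilin Q).Nondegenerate) {κ : Type*} [Fintype κ] [DecidableEq κ] {z : κ → ι → F}
    (hz : LinearIndependent F z) (h0 : ∀ i j, polar (⇑Q) (z i) (z j) = 0) (h1 : ∀ i, Q (z i) = 1)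
    (s : ℕ) (hs : 0 < s) (hsk : s ≤ Fintype.card κ) :
    ∃ t : ↥(Cfsg.isometryGroup F (⇑Q)), t * t = 1 ∧ t ≠ 1 ∧ rk t = s ∧ ¬ IsAltT t := by
  classical
  obtain ⟨ε⟩ : Nonempty (Fin s ↪ κ) := Function.Embedding.nonempty_of_card_le (by simpa using hsk)
  have hz' : LinearIndependent F (z ∘ ε) := hz.comp _ ε.injective
  obtain ⟨t, htt, hr, hval⟩ := exists_invol_norm_one hQ hz' (fun i j => h0 _ _) (fun i => h1 _)
  rw [Fintype.card_fin] at hr
  refine ⟨t, htt, ne_one_of_rk (by rw [rk, hr]; exact hs), hr, fun ha => ?_⟩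
  obtain ⟨x, hx⟩ := pairing_surjective hQ hz' (Pi.single ⟨0, hs⟩ 1)
  have h2 := ha x
  rw [hval, Finset.sum_eq_single ⟨0, hs⟩] at h2
  · rw [hx] at h2
    simp at h2
  · intro j _ hj
    rw [hx]
    simp [hj]
  · intro h
    exact absurd (Finset.mem_univ _) h

/-- Alternating involution of rank `2 k`. -/
theorem exists_rep_alt (hQ : (polarBilin Q).Nondegenerate) {κ : Type*} [Fintype κ] [DecidableEq κ] {z : κ → ι → F}
    (hz : LinearIndependent F z) (h0 : ∀ i j, polar (⇑Q) (z i) (z j) = 0) (h1 : ∀ i, Q (z i) = 0)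
    (k : ℕ) (hk : 0 < k) (hsk : 2 * k ≤ Fintype.card κ) :
    ∃ t : ↥(Cfsg.isometryGroup F (⇑Q)), t * t = 1 ∧ t ≠ 1 ∧ rk t = 2 * k ∧ IsAltT t := by
  classical
  obtain ⟨ε⟩ : Nonempty (Fin k ⊕ Fin k ↪ κ) := Function.Embedding.nonempty_of_card_le (by
    simp only [Fintype.card_sum, Fintype.card_fin]; omega)
  have hz' : LinearIndependent F (z ∘ ε) := hz.comp _ ε.injective
  obtain ⟨t, htt, hr, hval⟩ := exists_invol_ts hQ hz' (fun i j => h0 _ _) (fun i => h1 _)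
  rw [Fintype.card_fin] at hr
  refine ⟨t, htt, ne_one_of_rk (by rw [rk, hr]; omega), hr, hval⟩

end Reps

section CountO

open _root_.Classical in
/-- The type as a boolean. -/
noncomputable def altB (t : ↥(Cfsg.isometryGroup F (⇑Q))) : Bool := decide (IsAltT t)

theorem altB_eq_true {t : ↥(Cfsg.isometryGroup F (⇑Q))} : altB t = true ↔ IsAltT t := by
  classical
  simp [altB]

/-- Bool equality from the invariants. -/
theorem inv_of_eq {a b : ↥(Cfsg.isometryGroup F (⇑Q))} (h : (rk a, altB a) = (rk b, altB b)) :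
    rk a = rk b ∧ (IsAltT a ↔ IsAltT b) := by
  rw [Prod.mk.injEq] at h
  refine ⟨h.1, ?_⟩
  rw [← altB_eq_true, ← altB_eq_true, h.2]

theorem eq_of_inv {a : ↥(Cfsg.isometryGroup F (⇑Q))} {p : ℕ × Bool} (h1 : rk a = p.1) (h2 : IsAltT a ↔ p.2 = true) :
    (rk a, altB a) = p := by
  obtain ⟨p1, p2⟩ := p
  simp only at h1 h2
  rw [h1, Prod.mk.injEq]
  refine ⟨rfl, ?_⟩
  rw [Bool.eq_iff_iff, altB_eq_true, h2]

/-- Counting classes of involutions of `O`. -/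
theorem card_classes_O (hQ : (polarBilin Q).Nondegenerate) (S : Finset (ℕ × Bool))
    (hmem : ∀ t : ↥(Cfsg.isometryGroup F (⇑Q)), t * t = 1 → t ≠ 1 → (rk t, altB t) ∈ S)
    (hex : ∀ p ∈ S, ∃ t : ↥(Cfsg.isometryGroup F (⇑Q)), t * t = 1 ∧ t ≠ 1 ∧ rk t = p.1 ∧ (IsAltT t ↔ p.2 = true)) :
    Nat.card {C : ConjClasses ↥(Cfsg.isometryGroup F (⇑Q)) // ∃ g : ↥(Cfsg.isometryGroup F (⇑Q)), ConjClasses.mk g = C ∧ orderOf g = 2} = S.card := by
  classical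
  let X := {C : ConjClasses ↥(Cfsg.isometryGroup F (⇑Q)) // ∃ g : ↥(Cfsg.isometryGroup F (⇑Q)), ConjClasses.mk g = C ∧ orderOf g = 2}
  have hrep : ∀ C : X, ConjClasses.mk C.2.choose = C.1 ∧ C.2.choose * C.2.choose = 1 ∧ C.2.choose ≠ 1 := by
    intro C
    have := C.2.choose_spec
    exact ⟨this.1, orderOf_eq_two_iff.1 this.2⟩
  let f : X → S := fun C => ⟨(rk C.2.choose, altB C.2.choose), hmem _ (hrep C).2.1 (hrep C).2.2⟩
  have hf : Function.Bijective f := by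
    constructor
    · intro C₁ C₂ h
      have h1 := congrArg Subtype.val h
      apply Subtype.ext
      rw [← (hrep C₁).1, ← (hrep C₂).1, ConjClasses.mk_eq_mk_iff_isConj]
      exact (isConj_iff_inv hQ _ _ (hrep C₁).2.1 (hrep C₂).2.1).2 (inv_of_eq h1)
    · rintro ⟨p, hp⟩
      obtain ⟨t, htt, ht1, hr, hb⟩ := hex p hp
      refine ⟨⟨ConjClasses.mk t, t, rfl, orderOf_eq_two_iff.2 ⟨htt, ht1⟩⟩, ?_⟩
      apply Subtype.ext
      have hC := hrep ⟨ConjClasses.mk t, t, rfl, orderOf_eq_two_iff.2 ⟨htt, ht1⟩⟩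
      have h2 := (isConj_iff_inv hQ _ _ hC.2.1 htt).1 (ConjClasses.mk_eq_mk_iff_isConj.1 hC.1)
      exact eq_of_inv (h2.1.trans hr) (h2.2.trans hb)
  rw [Nat.card_congr (Equiv.ofBijective f hf), Nat.card_eq_fintype_card, Fintype.card_coe]

end CountO

section CountOmega

/-- Conjugacy in `Ω` as a subtype. -/
theorem isConj_omega_iff {t s : ↥(Cfsg.Omega F (⇑Q))} :
    IsConj t s ↔ ∃ g ∈ Cfsg.Omega F (⇑Q), g * (t : ↥(Cfsg.isometryGroup F (⇑Q))) * g⁻¹ = s := by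
  rw [isConj_iff]
  constructor
  · rintro ⟨g, rfl⟩
    exact ⟨g, g.2, rfl⟩
  · rintro ⟨g, hg, h⟩
    exact ⟨⟨g, hg⟩, Subtype.ext h⟩

theorem coe_ne_one {t : ↥(Cfsg.Omega F (⇑Q))} (h : t ≠ 1) : (t : ↥(Cfsg.isometryGroup F (⇑Q))) ≠ 1 := by
  intro h1
  exact h (Subtype.ext h1)

/-- Counting classes of involutions of `Ω` when no class splits. -/
theorem card_classes_Omega (hQ : (polarBilin Q).Nondegenerate) (S : Finset (ℕ × Bool))
    (hmem : ∀ t : ↥(Cfsg.isometryGroup F (⇑Q)), t ∈ Cfsg.Omega F (⇑Q) → t * t = 1 → t ≠ 1 → (rk t, altB t) ∈ S)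
    (hex : ∀ p ∈ S, ∃ t : ↥(Cfsg.isometryGroup F (⇑Q)), t ∈ Cfsg.Omega F (⇑Q) ∧ t * t = 1 ∧ t ≠ 1 ∧ rk t = p.1 ∧ (IsAltT t ↔ p.2 = true))
    (hconj : ∀ t s : ↥(Cfsg.isometryGroup F (⇑Q)), t ∈ Cfsg.Omega F (⇑Q) → s ∈ Cfsg.Omega F (⇑Q) →
      t * t = 1 → s * s = 1 → t ≠ 1 → s ≠ 1 → IsConj t s → ∃ g ∈ Cfsg.Omega F (⇑Q), g * t * g⁻¹ = s) :
    Nat.card {C : ConjClasses ↥(Cfsg.Omega F (⇑Q)) // ∃ g : ↥(Cfsg.Omega F (⇑Q)), ConjClasses.mk g = C ∧ orderOf g = 2} = S.card := by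
  classical
  let X := {C : ConjClasses ↥(Cfsg.Omega F (⇑Q)) // ∃ g : ↥(Cfsg.Omega F (⇑Q)), ConjClasses.mk g = C ∧ orderOf g = 2}
  have hrep : ∀ C : X, ConjClasses.mk C.2.choose = C.1 ∧ C.2.choose * C.2.choose = 1 ∧ C.2.choose ≠ 1 := by
    intro C
    have := C.2.choose_spec
    exact ⟨this.1, orderOf_eq_two_iff.1 this.2⟩
  have hrep' : ∀ C : X, ((C.2.choose : ↥(Cfsg.isometryGroup F (⇑Q)))) * C.2.choose = 1 := by
    intro C
    have := congrArg Subtype.val (hrep C).2.1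
    exact this
  let f : X → S := fun C => ⟨(rk (C.2.choose : ↥(Cfsg.isometryGroup F (⇑Q))), altB (C.2.choose : ↥(Cfsg.isometryGroup F (⇑Q)))),
    hmem _ C.2.choose.2 (hrep' C) (coe_ne_one (hrep C).2.2)⟩
  have hf : Function.Bijective f := by
    constructor
    · intro C₁ C₂ h
      have h1 := congrArg Subtype.val h
      apply Subtype.ext
      rw [← (hrep C₁).1, ← (hrep C₂).1, ConjClasses.mk_eq_mk_iff_isConj, isConj_omega_iff]
      exact hconj _ _ C₁.2.choose.2 C₂.2.choose.2 (hrep' C₁) (hrep' C₂) (coe_ne_one (hrep C₁).2.2) (coe_ne_one (hrep C₂).2.2)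
        ((isConj_iff_inv hQ _ _ (hrep' C₁) (hrep' C₂)).2 (inv_of_eq h1))
    · rintro ⟨p, hp⟩
      obtain ⟨t, htO, htt, ht1, hr, hb⟩ := hex p hp
      have hord : orderOf (⟨t, htO⟩ : ↥(Cfsg.Omega F (⇑Q))) = 2 :=
        orderOf_eq_two_iff.2 ⟨Subtype.ext htt, fun h => ht1 (congrArg Subtype.val h)⟩
      refine ⟨⟨ConjClasses.mk ⟨t, htO⟩, ⟨t, htO⟩, rfl, hord⟩, ?_⟩
      apply Subtype.ext
      have hC := hrep ⟨ConjClasses.mk ⟨t, htO⟩, ⟨t, htO⟩, rfl, hord⟩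
      have hC' := hrep' ⟨ConjClasses.mk ⟨t, htO⟩, ⟨t, htO⟩, rfl, hord⟩
      obtain ⟨g, hg, hgc⟩ := isConj_omega_iff.1 (ConjClasses.mk_eq_mk_iff_isConj.1 hC.1)
      have h2 := (isConj_iff_inv hQ _ _ hC' htt).1 (isConj_iff.2 ⟨g, hgc⟩)
      exact eq_of_inv (h2.1.trans hr) (h2.2.trans hb)
  rw [Nat.card_congr (Equiv.ofBijective f hf), Nat.card_eq_fintype_card, Fintype.card_coe]

/-- Counting classes of involutions of `Ω` when exactly one class splits into two. -/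
theorem card_classes_Omega_split (hQ : (polarBilin Q).Nondegenerate) (S : Finset (ℕ × Bool))
    (hmem : ∀ t : ↥(Cfsg.isometryGroup F (⇑Q)), t ∈ Cfsg.Omega F (⇑Q) → t * t = 1 → t ≠ 1 → (rk t, altB t) ∈ S)
    (hex : ∀ p ∈ S, ∃ t : ↥(Cfsg.isometryGroup F (⇑Q)), t ∈ Cfsg.Omega F (⇑Q) ∧ t * t = 1 ∧ t ≠ 1 ∧ rk t = p.1 ∧ (IsAltT t ↔ p.2 = true))
    (t₀ t₁ : ↥(Cfsg.isometryGroup F (⇑Q))) (ht₀ : t₀ ∈ Cfsg.Omega F (⇑Q)) (ht₁ : t₁ ∈ Cfsg.Omega F (⇑Q))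
    (ht₀2 : t₀ * t₀ = 1) (ht₁2 : t₁ * t₁ = 1) (ht₀1 : t₀ ≠ 1) (ht₁1 : t₁ ≠ 1) (h01 : IsConj t₀ t₁)
    (hnc : ¬ ∃ g ∈ Cfsg.Omega F (⇑Q), g * t₀ * g⁻¹ = t₁)
    (hconj1 : ∀ t s : ↥(Cfsg.isometryGroup F (⇑Q)), t ∈ Cfsg.Omega F (⇑Q) → s ∈ Cfsg.Omega F (⇑Q) →
      t * t = 1 → s * s = 1 → t ≠ 1 → s ≠ 1 → IsConj t s → ¬ IsConj t₀ t → ∃ g ∈ Cfsg.Omega F (⇑Q), g * t * g⁻¹ = s)
    (hconj2 : ∀ s : ↥(Cfsg.isometryGroup F (⇑Q)), s ∈ Cfsg.Omega F (⇑Q) → s * s = 1 → IsConj t₀ s →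
      (∃ g ∈ Cfsg.Omega F (⇑Q), g * t₀ * g⁻¹ = s) ∨ (∃ g ∈ Cfsg.Omega F (⇑Q), g * t₁ * g⁻¹ = s)) :
    Nat.card {C : ConjClasses ↥(Cfsg.Omega F (⇑Q)) // ∃ g : ↥(Cfsg.Omega F (⇑Q)), ConjClasses.mk g = C ∧ orderOf g = 2} = S.card + 1 := by
  classical
  let X := {C : ConjClasses ↥(Cfsg.Omega F (⇑Q)) // ∃ g : ↥(Cfsg.Omega F (⇑Q)), ConjClasses.mk g = C ∧ orderOf g = 2}
  have hrep : ∀ C : X, ConjClasses.mk C.2.choose = C.1 ∧ C.2.choose * C.2.choose = 1 ∧ C.2.choose ≠ 1 := by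
    intro C
    have := C.2.choose_spec
    exact ⟨this.1, orderOf_eq_two_iff.1 this.2⟩
  have hrep' : ∀ C : X, ((C.2.choose : ↥(Cfsg.isometryGroup F (⇑Q)))) * C.2.choose = 1 := by
    intro C
    have := congrArg Subtype.val (hrep C).2.1
    exact this
  let f₀ : X → S := fun C => ⟨(rk (C.2.choose : ↥(Cfsg.isometryGroup F (⇑Q))), altB (C.2.choose : ↥(Cfsg.isometryGroup F (⇑Q)))),
    hmem _ C.2.choose.2 (hrep' C) (coe_ne_one (hrep C).2.2)⟩
  let c₁ : ConjClasses ↥(Cfsg.Omega F (⇑Q)) := ConjClasses.mk ⟨t₁, ht₁⟩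
  let f : X → Option S := fun C => if C.1 = c₁ then none else some (f₀ C)
  -- classes over the invariants of `t₀` are those of `t₀` and `t₁`
  have hcl : ∀ C : X, IsConj t₀ (C.2.choose : ↥(Cfsg.isometryGroup F (⇑Q))) → C.1 ≠ c₁ → C.1 = ConjClasses.mk ⟨t₀, ht₀⟩ := by
    intro C hC hne
    rcases hconj2 _ C.2.choose.2 (hrep' C) hC with h | h
    · rw [← (hrep C).1, ConjClasses.mk_eq_mk_iff_isConj, isConj_omega_iff]
      obtain ⟨g, hg, hgc⟩ := h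
      refine ⟨g⁻¹, inv_mem hg, ?_⟩
      rw [← hgc]
      group
    · exfalso
      apply hne
      rw [← (hrep C).1, ConjClasses.mk_eq_mk_iff_isConj, isConj_omega_iff]
      obtain ⟨g, hg, hgc⟩ := h
      refine ⟨g⁻¹, inv_mem hg, ?_⟩
      rw [← hgc]
      group
  have hne01 : ConjClasses.mk (⟨t₀, ht₀⟩ : ↥(Cfsg.Omega F (⇑Q))) ≠ c₁ := by
    intro h
    have h' : IsConj (⟨t₀, ht₀⟩ : ↥(Cfsg.Omega F (⇑Q))) (⟨t₁, ht₁⟩ : ↥(Cfsg.Omega F (⇑Q))) :=
      ConjClasses.mk_eq_mk_iff_isConj.1 h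
    obtain ⟨g, hg, hgc⟩ := isConj_omega_iff.1 h'
    exact hnc ⟨g, hg, hgc⟩
  have hfn : ∀ C : X, C.1 = c₁ → f C = none := fun C h => if_pos h
  have hfs : ∀ C : X, C.1 ≠ c₁ → f C = some (f₀ C) := fun C h => if_neg h
  have hf : Function.Bijective f := by
    constructor
    · intro C₁ C₂ h
      apply Subtype.ext
      by_cases h1 : C₁.1 = c₁
      · by_cases h2 : C₂.1 = c₁
        · rw [h1, h2]
        · rw [hfn C₁ h1, hfs C₂ h2] at h
          exact absurd h (by simp)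
      · by_cases h2 : C₂.1 = c₁
        · rw [hfs C₁ h1, hfn C₂ h2] at h
          exact absurd h (by simp)
        · rw [hfs C₁ h1, hfs C₂ h2, Option.some.injEq] at h
          have h3 := congrArg Subtype.val h
          have hc := (isConj_iff_inv hQ _ _ (hrep' C₁) (hrep' C₂)).2 (inv_of_eq h3)
          by_cases h4 : IsConj t₀ (C₁.2.choose : ↥(Cfsg.isometryGroup F (⇑Q)))
          · rw [hcl C₁ h4 h1, hcl C₂ (h4.trans hc) h2]
          · rw [← (hrep C₁).1, ← (hrep C₂).1, ConjClasses.mk_eq_mk_iff_isConj, isConj_omega_iff]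
            exact hconj1 _ _ C₁.2.choose.2 C₂.2.choose.2 (hrep' C₁) (hrep' C₂) (coe_ne_one (hrep C₁).2.2)
              (coe_ne_one (hrep C₂).2.2) hc h4
    · intro o
      have hord₁ : orderOf (⟨t₁, ht₁⟩ : ↥(Cfsg.Omega F (⇑Q))) = 2 :=
        orderOf_eq_two_iff.2 ⟨Subtype.ext ht₁2, fun h => ht₁1 (congrArg Subtype.val h)⟩
      have hord₀ : orderOf (⟨t₀, ht₀⟩ : ↥(Cfsg.Omega F (⇑Q))) = 2 :=
        orderOf_eq_two_iff.2 ⟨Subtype.ext ht₀2, fun h => ht₀1 (congrArg Subtype.val h)⟩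
      rcases o with _ | ⟨p, hp⟩
      · exact ⟨⟨c₁, ⟨t₁, ht₁⟩, rfl, hord₁⟩, hfn _ rfl⟩
      · obtain ⟨t, htO, htt, ht1, hr, hb⟩ := hex p hp
        have hord : orderOf (⟨t, htO⟩ : ↥(Cfsg.Omega F (⇑Q))) = 2 :=
          orderOf_eq_two_iff.2 ⟨Subtype.ext htt, fun h => ht1 (congrArg Subtype.val h)⟩
        by_cases hne : ConjClasses.mk (⟨t, htO⟩ : ↥(Cfsg.Omega F (⇑Q))) = c₁
        · -- `t` is `Ω`-conjugate to `t₁`; use `t₀` instead
          refine ⟨⟨ConjClasses.mk ⟨t₀, ht₀⟩, ⟨t₀, ht₀⟩, rfl, hord₀⟩, ?_⟩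
          rw [hfs _ hne01]
          congr 1
          apply Subtype.ext
          have hC := hrep ⟨ConjClasses.mk ⟨t₀, ht₀⟩, ⟨t₀, ht₀⟩, rfl, hord₀⟩
          have hC' := hrep' ⟨ConjClasses.mk ⟨t₀, ht₀⟩, ⟨t₀, ht₀⟩, rfl, hord₀⟩
          obtain ⟨g, hg, hgc⟩ := isConj_omega_iff.1 (ConjClasses.mk_eq_mk_iff_isConj.1 hC.1)
          obtain ⟨g', hg', hgc'⟩ := isConj_omega_iff.1 (ConjClasses.mk_eq_mk_iff_isConj.1 hne)
          have h01' : IsConj t₁ t := by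
            refine isConj_iff.2 ⟨g'⁻¹, ?_⟩
            have hgc'' : g' * t * g'⁻¹ = t₁ := hgc'
            rw [← hgc'']
            group
          have h2 := (isConj_iff_inv hQ _ _ hC' htt).1 ((isConj_iff.2 ⟨g, hgc⟩).trans (h01.trans h01'))
          exact eq_of_inv (h2.1.trans hr) (h2.2.trans hb)
        · refine ⟨⟨ConjClasses.mk ⟨t, htO⟩, ⟨t, htO⟩, rfl, hord⟩, ?_⟩
          rw [hfs _ hne]
          congr 1
          apply Subtype.ext
          have hC := hrep ⟨ConjClasses.mk ⟨t, htO⟩, ⟨t, htO⟩, rfl, hord⟩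
          have hC' := hrep' ⟨ConjClasses.mk ⟨t, htO⟩, ⟨t, htO⟩, rfl, hord⟩
          obtain ⟨g, hg, hgc⟩ := isConj_omega_iff.1 (ConjClasses.mk_eq_mk_iff_isConj.1 hC.1)
          have h2 := (isConj_iff_inv hQ _ _ hC' htt).1 (isConj_iff.2 ⟨g, hgc⟩)
          exact eq_of_inv (h2.1.trans hr) (h2.2.trans hb)
  rw [Nat.card_congr (Equiv.ofBijective f hf), Nat.card_eq_fintype_card, Fintype.card_option, Fintype.card_coe]

end CountOmega

end Cfsg.Agent.Lib.Classical.Witt.InvolCount
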