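import Mathlib
import Cfsg.Agent.Lib.Classical.Witt.InvolCount

/-!
# The representatives of involutions in the models of `O^±_{2m}(q)`, `q` even, and the finite sets of invariants
-/

set_option autoImplicit false
set_option linter.unusedSectionVars false
set_option linter.unusedVariables false

namespace Cfsg.Agent.Lib.Classical.Witt.InvolModels

open Module QuadraticMap Matrix
open Cfsg.Agent.Lib.Classical.Orth.Basic Cfsg.Agent.Lib.Classical.Orth.Models
open Cfsg.Agent.Lib.Classical.Witt.InvolChar2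
open Cfsg.Agent.Lib.Classical.Symp.InvolChar2
open Cfsg.Agent.Lib.Classical.Witt.InvolRep Cfsg.Agent.Lib.Classical.Witt.InvolCount

variable {F : Type*} [Field F] [Fintype F] [CharP F 2]

/-- Linear independence from coordinates. -/
theorem linInd_of_coord {ι κ : Type*} [Fintype κ] [DecidableEq κ] (z : κ → ι → F) (c : κ → ι)
    (h : ∀ i j, z i (c j) = if i = j then 1 else 0) : LinearIndependent F z := by
  rw [Fintype.linearIndependent_iff]
  intro a h0 j
  have := congrFun h0 (c j)
  simpa [Finset.sum_apply, h, Finset.sum_ite_eq'] using this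

section Plus

variable (m : ℕ)

/-- The norm one family. -/
noncomputable def plusOne (F : Type*) [Field F] (i : Fin m) : Fin m ⊕ Fin m → F :=
  Pi.single (Sum.inl i) 1 + Pi.single (Sum.inr i) 1

/-- The totally singular family. -/
noncomputable def plusZero (F : Type*) [Field F] (i : Fin m) : Fin m ⊕ Fin m → F :=
  Pi.single (Sum.inl i) 1

theorem plus_nonalt (s : ℕ) (hs : 0 < s) (hsm : s ≤ m) :
    ∃ t : ↥(Cfsg.isometryGroup F (⇑(plusForm m F))), t * t = 1 ∧ t ≠ 1 ∧ rk t = s ∧ ¬ IsAltT t := by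
  have h2 := two_eq_zero' F
  refine exists_rep_nonalt (plusForm_nondegenerate m) (z := plusOne m F) ?_ ?_ ?_ s hs (by simpa using hsm)
  · refine linInd_of_coord _ Sum.inl fun i j => ?_
    simp [plusOne, Pi.single_apply, Sum.inl.injEq, eq_comm]
  · intro i j
    rw [plusOne, polar_add_left, coe_plusForm, polar_plus_single_inl, polar_plus_single_inr]
    simp only [plusOne, Pi.add_apply, Pi.single_apply]
    simp only [Sum.inr.injEq, Sum.inl.injEq, reduceCtorEq, if_false, add_zero, zero_add]
    rw [← two_mul, h2, zero_mul]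
  · intro i
    rw [coe_plusForm_apply, Cfsg.quadFormPlus, Finset.sum_eq_single i]
    · simp [plusOne]
    · intro b _ hb
      simp [plusOne, Pi.single_apply, hb, hb.symm]
    · intro h
      exact absurd (Finset.mem_univ _) h

theorem plus_alt (k : ℕ) (hk : 0 < k) (hkm : 2 * k ≤ m) :
    ∃ t : ↥(Cfsg.isometryGroup F (⇑(plusForm m F))), t * t = 1 ∧ t ≠ 1 ∧ rk t = 2 * k ∧ IsAltT t := by
  refine exists_rep_alt (plusForm_nondegenerate m) (z := plusZero m F) ?_ ?_ ?_ k hk (by simpa using hkm)
  · refine linInd_of_coord _ Sum.inl fun i j => ?_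
    simp [plusZero, Pi.single_apply, Sum.inl.injEq, eq_comm]
  · intro i j
    rw [coe_plusForm, plusZero, polar_plus_single_inl]
    simp [plusZero, Pi.single_apply]
  · intro i
    rw [coe_plusForm_apply, Cfsg.quadFormPlus]
    simp [plusZero, Pi.single_apply]

end Plus

section Minus

variable (m : ℕ) (a b : F)

/-- The norm one family. -/
noncomputable def minusOne (F : Type*) [Field F] : Option (Fin m) → (Fin m ⊕ Fin m) ⊕ Fin 2 → F
  | some i => Pi.single (Sum.inl (Sum.inl i)) 1 + Pi.single (Sum.inl (Sum.inr i)) 1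
  | none => Pi.single (Sum.inr 0) 1

/-- The totally singular family. -/
noncomputable def minusZero (F : Type*) [Field F] (i : Fin m) : (Fin m ⊕ Fin m) ⊕ Fin 2 → F :=
  Pi.single (Sum.inl (Sum.inl i)) 1

/-- The coordinates for the norm one family. -/
def minusCoord : Option (Fin m) → (Fin m ⊕ Fin m) ⊕ Fin 2
  | some i => Sum.inl (Sum.inl i)
  | none => Sum.inr 0

variable {m a b}

theorem minus_nonalt (hab : ∀ z₁ z₂ : F, z₁ ^ 2 + a * z₁ * z₂ + b * z₂ ^ 2 = 0 → z₁ = 0 ∧ z₂ = 0)
    (s : ℕ) (hs : 0 < s) (hsm : s ≤ m + 1) :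
    ∃ t : ↥(Cfsg.isometryGroup F (⇑(minusForm m F a b))), t * t = 1 ∧ t ≠ 1 ∧ rk t = s ∧ ¬ IsAltT t := by
  have h2 := two_eq_zero' F
  refine exists_rep_nonalt (minusForm_nondegenerate m a b hab) (z := minusOne m F) ?_ ?_ ?_ s hs (by simpa using hsm)
  · refine linInd_of_coord _ (minusCoord m) fun i j => ?_
    rcases i with _ | i <;> rcases j with _ | j <;>
      simp [minusOne, minusCoord, Pi.single_apply, Sum.inl.injEq, eq_comm]
  · intro i j
    rcases i with _ | i
    · rw [coe_minusForm, minusOne, polar_minus_single_z0, h2, zero_mul, zero_add]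
      rcases j with _ | j <;> simp [minusOne, Pi.single_apply]
    · rw [minusOne, polar_add_left, coe_minusForm, polar_minus_single_inl, polar_minus_single_inr]
      rcases j with _ | j
      · simp [minusOne, Pi.single_apply]
      · simp only [minusOne, Pi.add_apply, Pi.single_apply]
        simp only [Sum.inr.injEq, Sum.inl.injEq, reduceCtorEq, if_false, add_zero, zero_add]
        rw [← two_mul, h2, zero_mul]
  · intro i
    rw [coe_minusForm_apply, Cfsg.quadFormMinus]
    rcases i with _ | i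
    · simp [minusOne, Pi.single_apply]
    · rw [Finset.sum_eq_single i]
      · simp [minusOne, Pi.single_apply]
      · intro c _ hc
        simp [minusOne, Pi.single_apply, hc, hc.symm]
      · intro h
        exact absurd (Finset.mem_univ _) h

theorem minus_alt (hab : ∀ z₁ z₂ : F, z₁ ^ 2 + a * z₁ * z₂ + b * z₂ ^ 2 = 0 → z₁ = 0 ∧ z₂ = 0)
    (k : ℕ) (hk : 0 < k) (hkm : 2 * k ≤ m) :
    ∃ t : ↥(Cfsg.isometryGroup F (⇑(minusForm m F a b))), t * t = 1 ∧ t ≠ 1 ∧ rk t = 2 * k ∧ IsAltT t := by
  refine exists_rep_alt (minusForm_nondegenerate m a b hab) (z := minusZero m F) ?_ ?_ ?_ k hk (by simpa using hkm)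
  · refine linInd_of_coord _ (fun i => Sum.inl (Sum.inl i)) fun i j => ?_
    simp [minusZero, Pi.single_apply, Sum.inl.injEq, eq_comm]
  · intro i j
    rw [coe_minusForm, minusZero, polar_minus_single_inl]
    simp [minusZero, Pi.single_apply]
  · intro i
    rw [coe_minusForm_apply, Cfsg.quadFormMinus]
    simp [minusZero, Pi.single_apply]

omit [Fintype F] in
theorem Q_nM_of_alt {ι : Type} [Fintype ι] [DecidableEq ι] {Q : QuadraticForm F (ι → F)}
    {t : ↥(Cfsg.isometryGroup F (⇑Q))} (htt : t * t = 1) (ha : IsAltT t) (x : ι → F) : Q (nM t x) = 0 := by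
  rw [(isQuadN_nM htt).val, polar_nM]
  exact ha x

/-- The image of `t - 1` has dimension less than `m` when it is totally singular in the minus type. -/
theorem rk_le_of_alt_minus {m : ℕ} {a b : F} (hab : ∀ z₁ z₂ : F, z₁ ^ 2 + a * z₁ * z₂ + b * z₂ ^ 2 = 0 → z₁ = 0 ∧ z₂ = 0)
    {t : ↥(Cfsg.isometryGroup F (⇑(minusForm m F a b)))} (htt : t * t = 1) (ha : IsAltT t) : rk t ≤ m := by
  have hts : ∀ w ∈ LinearMap.range (nM t), Cfsg.Agent.Lib.Linalg.OrthModels.minusQ m F a b w = 0 := by
    rintro _ ⟨x, rfl⟩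
    rw [Cfsg.Agent.Lib.Linalg.OrthModels.minusQ_apply, ← coe_minusForm_apply]
    exact Q_nM_of_alt htt ha x
  exact Cfsg.Agent.Lib.Classical.Witt.Index.finrank_le_of_ts_minus m hab _ hts

end Minus

section Sets

/-- The set of invariants. -/
def mkS (A B : Finset ℕ) : Finset (ℕ × Bool) := A.image (fun s => (s, false)) ∪ B.image (fun s => (s, true))

theorem mem_mkS {A B : Finset ℕ} {p : ℕ × Bool} :
    p ∈ mkS A B ↔ (p.2 = false ∧ p.1 ∈ A) ∨ (p.2 = true ∧ p.1 ∈ B) := by
  obtain ⟨s, b⟩ := p
  simp only [mkS, Finset.mem_union, Finset.mem_image, Prod.mk.injEq]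
  cases b <;> simp

theorem card_mkS (A B : Finset ℕ) : (mkS A B).card = A.card + B.card := by
  rw [mkS, Finset.card_union_of_disjoint, Finset.card_image_of_injective, Finset.card_image_of_injective]
  · intro x y h
    exact (Prod.mk.inj h).1
  · intro x y h
    exact (Prod.mk.inj h).1
  · rw [Finset.disjoint_left]
    intro x hx hy
    simp only [Finset.mem_image] at hx hy
    obtain ⟨s, _, rfl⟩ := hx
    obtain ⟨t, _, ht⟩ := hy
    simp at ht

/-- All numbers in `1..n`. -/
abbrev allS (n : ℕ) : Finset ℕ := Finset.Ioc 0 n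

/-- All even numbers in `1..n`. -/
abbrev evS (n : ℕ) : Finset ℕ := (Finset.Ioc 0 n).filter (fun x => 2 ∣ x)

theorem card_allS (n : ℕ) : (allS n).card = n := by simp

theorem card_evS (n : ℕ) : (evS n).card = n / 2 := Nat.Ioc_filter_dvd_card_eq_div n 2

theorem mem_evS {n s : ℕ} : s ∈ evS n ↔ (0 < s ∧ s ≤ n) ∧ 2 ∣ s := by
  simp [evS, Finset.mem_filter, Finset.mem_Ioc]

end Sets

end Cfsg.Agent.Lib.Classical.Witt.InvolModels
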