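import Mathlib
import Cfsg.Agent.Lib.Classical.Orth.DicksonRank
import Cfsg.Agent.Lib.Classical.Witt.Index
import Cfsg.Agent.Lib.Linalg.OrthModels
import Cfsg.Agent.Lib.Classical.Orth.Models

/-!
# Cartan-Dieudonne and the Dickson invariant under a weaker hypothesis

The proofs in `Orth.CartanDieudonne` and `Orth.Dickson` use the restriction on the field only through the
existence of a vector `y` (`exists_y`). Here this existence is taken as a hypothesis `HasY`; it holds for the
elliptic form of dimension four over any field, in particular for `O⁻₄(2)`.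
-/

set_option autoImplicit false
set_option linter.unusedSectionVars false
set_option linter.unusedSimpArgs false
set_option linter.unusedVariables false

namespace Cfsg.Agent.Lib.Classical.Witt.DicksonY

open Matrix QuadraticMap Module
open Cfsg.Agent.Lib.Classical.Orth.Basic
open Cfsg.Agent.Lib.Classical.Orth.CartanDieudonne
open Cfsg.Agent.Lib.Classical.Orth.Dickson
open Cfsg.Agent.Lib.Classical.Orth.DicksonRank

variable {ι : Type} [Fintype ι] [DecidableEq ι] {F : Type*} [Field F]
variable {Q : QuadraticForm F (ι → F)}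

set_option quotPrecheck false in
local notation "𝔣" => polar (⇑Q)

/-- The conclusion of `exists_y`. -/
def HasY (Q : QuadraticForm F (ι → F)) : Prop :=
  ∀ {a v : ι → F}, a ≠ 0 → Q a = 0 → Q v ≠ 0 → polar (⇑Q) a v = 0 →
    ∃ y, polar (⇑Q) v y = 1 ∧ polar (⇑Q) a y = 0 ∧ Q y ≠ 0

/-- The main step: every nontrivial isometry can be multiplied by an element of the reflection
group so that the fixed space grows. -/
theorem exists_enlargeY (hQ : (polarBilin Q).Nondegenerate)
    (hY : HasY Q)
    (g : ↥(Cfsg.isometryGroup F (⇑Q))) (hg : g ≠ 1) :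
    ∃ h ∈ reflGroup Q, finrank F (fixSpace g) < finrank F (fixSpace (h * g)) := by
  by_cases hbad : ∀ u, Q (act g u - u) = 0
  · -- a vector moved by g
    obtain ⟨v₁, hv₁⟩ : ∃ v₁, act g v₁ ≠ v₁ := by
      by_contra hcon
      push Not at hcon
      apply hg
      apply ext_act
      intro x
      rw [hcon, act_one]
    have hfix_ne : v₁ ∉ fixSpace g := hv₁
    by_cases hN : ∃ y₀ ∈ fixSpace g, Q y₀ ≠ 0
    · -- the non-Lagrangian case
      obtain ⟨y₀, hy₀, hQy₀⟩ := hN
      have hy₀0 : y₀ ≠ 0 := by
        rintro rfl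
        simp at hQy₀
      obtain ⟨v₂, hv₂⟩ : ∃ v₂, 𝔣 v₂ y₀ ≠ 0 := by
        by_contra hcon
        push Not at hcon
        exact hy₀0 (eq_zero_of_polar' hQ hcon)
      have hB : v₂ ∉ LinearMap.ker ((polarBilin Q).flip y₀) := by
        intro h
        apply hv₂
        have := LinearMap.mem_ker.1 h
        simpa [LinearMap.flip_apply, polarBilin_apply_apply] using this
      obtain ⟨v, hv1, hv2⟩ := exists_not_mem_two _ _ hfix_ne hB
      have ht : 𝔣 v y₀ ≠ 0 := by
        intro h
        apply hv2
        simpa [LinearMap.mem_ker, LinearMap.flip_apply, polarBilin_apply_apply] using h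
      set y := (𝔣 v y₀)⁻¹ • y₀ with hy
      have hyfix : y ∈ fixSpace g := (fixSpace g).smul_mem _ hy₀
      have hQy : Q y ≠ 0 := by
        rw [hy, Q_smul]
        exact mul_ne_zero (mul_ne_zero (inv_ne_zero ht) (inv_ne_zero ht)) hQy₀
      refine stepB hQ g hbad v y hQy ?_ ?_ ?_ hv1
      · rw [hy, polar_smul_right']; field_simp
      · exact polar_eq_zero_of_fix g hyfix v
      · intro h
        have h2 : y - Q y • v ∈ fixSpace g := h
        have h3 : Q y • v ∈ fixSpace g := by
          have := (fixSpace g).sub_mem hyfix h2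
          simpa using this
        exact hv1 ((Submodule.smul_mem_iff _ hQy).1 h3)
    · -- the Lagrangian case
      push Not at hN
      obtain ⟨v, hQv⟩ : ∃ v, Q v ≠ 0 := by
        by_contra hcon
        push Not at hcon
        have hv₁0 : act g v₁ - v₁ ≠ 0 := sub_ne_zero.2 hv₁
        apply hv₁0
        apply eq_zero_of_polar hQ
        intro y
        simp only [polar, hcon, sub_zero]
      have hv : act g v ≠ v := by
        intro h
        exact hQv (hN v h)
      set a := act g v - v with ha
      have ha0 : a ≠ 0 := sub_ne_zero.2 hv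
      have hQa : Q a = 0 := hbad v
      have hav : 𝔣 a v = 0 := by
        have h1 := hQa
        rw [ha, Q_sub, Q_act] at h1
        rw [ha, polar_sub_left, polar_self_eq]
        linear_combination -h1
      obtain ⟨y, hy1, hy2, hy3⟩ := hY ha0 hQa hQv hav
      refine stepB hQ g hbad v y hy3 hy1 hy2 ?_ hv
      intro h
      have h2 := hN _ h
      rw [Q_sub, Q_smul, polar_smul_right', polar_comm, hy1] at h2
      have h3 : Q y * Q y * Q v = 0 := by linear_combination h2
      exact (mul_ne_zero (mul_ne_zero hy3 hy3) hQv) h3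
  · -- the good case
    push Not at hbad
    obtain ⟨u, hu⟩ := hbad
    exact ⟨_, reflectionIso_mem _ hu, Submodule.finrank_lt_finrank_of_lt (stepA g u hu)⟩

/-- **Cartan-Dieudonne**: generation by reflections, any field. -/
theorem reflGroup_eq_topY (hQ : (polarBilin Q).Nondegenerate)
    (hY : HasY Q) : reflGroup Q = ⊤ := by
  have key : ∀ k : ℕ, ∀ g : ↥(Cfsg.isometryGroup F (⇑Q)),
      Fintype.card ι - finrank F (fixSpace g) ≤ k → g ∈ reflGroup Q := by
    intro k
    induction k with
    | zero =>
      intro g hg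
      by_cases h1 : g = 1
      · rw [h1]; exact Subgroup.one_mem _
      · obtain ⟨h, -, hlt⟩ := exists_enlargeY hQ hY g h1
        have h2 : finrank F ↥(fixSpace (h * g)) ≤ Fintype.card ι := by
          have := Submodule.finrank_le (fixSpace (h * g))
          rwa [Module.finrank_fintype_fun_eq_card] at this
        omega
    | succ k ih =>
      intro g hg
      by_cases h1 : g = 1
      · rw [h1]; exact Subgroup.one_mem _
      · obtain ⟨h, hh, hlt⟩ := exists_enlargeY hQ hY g h1
        have h2 : h * g ∈ reflGroup Q := ih _ (by omega)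
        have h3 : g = h⁻¹ * (h * g) := by group
        rw [h3]
        exact Subgroup.mul_mem _ (Subgroup.inv_mem _ hh) h2
  rw [eq_top_iff]
  intro g _
  exact key _ g le_rfl

theorem reflGroup_topY (hQ : (polarBilin Q).Nondegenerate)
    (hY : HasY Q) : reflGroup Q = ⊤ :=
  reflGroup_eq_topY hQ hY

/-- Induction on words in reflections. -/
theorem isometry_inductionY (hQ : (polarBilin Q).Nondegenerate)
    (hY : HasY Q)
    {p : ↥(Cfsg.isometryGroup F (⇑Q)) → Prop} (h1 : p 1)
    (hstep : ∀ (v : ι → F) (hv : Q v ≠ 0) (g), p g → p (reflectionIso Q v hv * g))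
    (g : ↥(Cfsg.isometryGroup F (⇑Q))) : p g := by
  have hg : g ∈ reflGroup Q := by rw [reflGroup_topY hQ hY]; trivial
  unfold reflGroup at hg
  have hrefl : ∀ (x : ↥(Cfsg.isometryGroup F (⇑Q))) (_ : x ∈ {g : ↥(Cfsg.isometryGroup F (⇑Q)) | ∃ v : ι → F, Q v ≠ 0 ∧ ((g : GL ι F) : Matrix ι ι F) = Cfsg.reflectionMatrix (⇑Q) v}),
      ∃ (u : ι → F) (hu : Q u ≠ 0), x = reflectionIso Q u hu := by
    rintro x ⟨u, hu, hx⟩
    refine ⟨u, hu, ?_⟩
    apply Subtype.ext
    apply Units.ext
    exact hx
  induction hg using Subgroup.closure_induction_left with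
  | one => exact h1
  | mul_left x hx y _ ih =>
    obtain ⟨u, hu, rfl⟩ := hrefl x hx
    exact hstep u hu y ih
  | inv_mul_cancel x hx y _ ih =>
    obtain ⟨u, hu, rfl⟩ := hrefl x hx
    rw [reflectionIso_inv]
    exact hstep u hu y ih

/-- The Dickson sign is a homomorphism when reflections generate. -/
noncomputable def dicksonHomY (hQ : (polarBilin Q).Nondegenerate)
    (hY : HasY Q) :
    ↥(Cfsg.isometryGroup F (⇑Q)) →* ℤˣ where
  toFun := dicksonSign
  map_one' := dicksonSign_one
  map_mul' := by
    intro g h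
    induction g using isometry_inductionY hQ hY with
    | h1 => rw [one_mul, dicksonSign_one, one_mul]
    | hstep v hv g ih =>
      rw [mul_assoc, dicksonSign_reflection_mul hQ, dicksonSign_reflection_mul hQ, ih, neg_mul]

@[simp] theorem dicksonHomY_apply (hQ : (polarBilin Q).Nondegenerate)
    (hY : HasY Q) (g : ↥(Cfsg.isometryGroup F (⇑Q))) :
    dicksonHomY hQ hY g = dicksonSign g := rfl

theorem dicksonHomY_reflection (hQ : (polarBilin Q).Nondegenerate)
    (hY : HasY Q) (v : ι → F) (hv : Q v ≠ 0) :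
    dicksonHomY hQ hY (reflectionIso Q v hv) = -1 := by
  have h1 := dicksonSign_reflection_mul hQ v hv 1
  rw [mul_one, dicksonSign_one] at h1
  exact h1


section CharTwo

variable [Fintype F] [CharP F 2]

theorem reflConj_of_norm_oneY (hQ : (polarBilin Q).Nondegenerate)
    (hY : HasY Q) {u v : ι → F} (hu : Q u = 1)
    (hv : Q v = 1) :
    ReflConj u (by rw [hu]; exact one_ne_zero) v (by rw [hv]; exact one_ne_zero) := by
  by_cases huv : 𝔣 u v = 0
  · by_cases heq : u = v
    · subst heq
      exact ⟨1, by group⟩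
    · have h2 := two_eq_zero' (F := F)
      set a := u + v with ha
      have ha0 : a ≠ 0 := by
        intro h
        apply heq
        have h3 : u = -v := eq_neg_of_add_eq_zero_left h
        have h4 : -v = v := by
          have h5 : (2 : F) • v = 0 := by rw [h2, zero_smul]
          rw [two_smul] at h5
          exact neg_eq_of_add_eq_zero_left h5
        rw [h3, h4]
      have hQa : Q a = 0 := by
        rw [ha, Q_add, hu, hv, huv]
        linear_combination h2
      have hQu : Q u ≠ 0 := by rw [hu]; exact one_ne_zero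
      have hau : 𝔣 a u = 0 := by
        rw [ha, polar_add_left, polar_self_eq, h2, zero_mul, zero_add, polar_comm, huv]
      obtain ⟨y, hy1, hy2, hy3⟩ := hY ha0 hQa hQu hau
      obtain ⟨t, ht, hty⟩ := exists_norm_one y hy3
      have hvy : 𝔣 v y = -1 := by
        rw [ha, polar_add_left, hy1] at hy2
        linear_combination hy2
      have h5 : 𝔣 u (t • y) ≠ 0 := by
        rw [polar_smul_right', hy1, mul_one]
        exact ht
      have h6 : 𝔣 (t • y) v ≠ 0 := by
        rw [polar_comm, polar_smul_right', hvy]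
        simpa using ht
      exact (reflConj_of_polar_ne hu hty h5).trans (reflConj_of_polar_ne hty hv h6)
  · exact reflConj_of_polar_ne hu hv huv

/-- In characteristic two, all reflections are conjugate. -/
theorem reflConj_allY (hQ : (polarBilin Q).Nondegenerate)
    (hY : HasY Q) {u v : ι → F} (hu : Q u ≠ 0)
    (hv : Q v ≠ 0) : ReflConj u hu v hv := by
  obtain ⟨s, hs, hsu⟩ := exists_norm_one u hu
  obtain ⟨t, ht, htv⟩ := exists_norm_one v hv
  obtain ⟨h, hh⟩ := reflConj_of_norm_oneY hQ hY hsu htv
  refine ⟨h, ?_⟩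
  rw [Cfsg.Agent.Lib.Classical.Orth.Spinor.reflectionIso_smul Q s hs u hu, Cfsg.Agent.Lib.Classical.Orth.Spinor.reflectionIso_smul Q t ht v hv] at hh
  exact hh

theorem of_reflection_eqY (hQ : (polarBilin Q).Nondegenerate)
    (hY : HasY Q) {u v : ι → F} (hu : Q u ≠ 0)
    (hv : Q v ≠ 0) :
    (Abelianization.of (reflectionIso Q u hu) : Abelianization ↥(Cfsg.isometryGroup F (⇑Q)))
      = Abelianization.of (reflectionIso Q v hv) := by
  obtain ⟨h, hh⟩ := reflConj_allY hQ hY hu hv
  rw [← hh, map_mul, map_mul, map_inv, mul_comm (Abelianization.of h)]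
  simp

theorem of_reflection_eq_eReflY (hQ : (polarBilin Q).Nondegenerate)
    (hY : HasY Q) (v : ι → F) (hv : Q v ≠ 0) :
    (Abelianization.of (reflectionIso Q v hv) : Abelianization ↥(Cfsg.isometryGroup F (⇑Q)))
      = eRefl Q := by
  have h : ∃ (v : ι → F), Q v ≠ 0 := ⟨v, hv⟩
  unfold eRefl
  rw [dif_pos h]
  exact of_reflection_eqY hQ hY _ _

/-- In characteristic two, `Ω` is the kernel of the Dickson sign. -/
theorem mem_omega_iff_char_twoY (hQ : (polarBilin Q).Nondegenerate)
    (hY : HasY Q) (g : ↥(Cfsg.isometryGroup F (⇑Q))) :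
    g ∈ Cfsg.Omega F (⇑Q) ↔ dicksonHomY hQ hY g = 1 := by
  constructor
  · intro hg
    exact (Abelianization.commutator_subset_ker (dicksonHomY hQ hY)) hg
  · intro h1
    have key : ∀ g : ↥(Cfsg.isometryGroup F (⇑Q)), ∃ a : ℕ, Abelianization.of g = eRefl Q ^ a ∧
        dicksonHomY hQ hY g = (-1) ^ a := by
      intro g
      induction g using isometry_inductionY hQ hY with
      | h1 => exact ⟨0, by simp, by rw [map_one, pow_zero]⟩
      | hstep v hv g ih =>
        obtain ⟨a, h3, h4⟩ := ih
        refine ⟨a + 1, ?_, ?_⟩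
        · rw [map_mul, h3, of_reflection_eq_eReflY hQ hY, pow_succ']
        · rw [map_mul, h4, dicksonHomY_reflection, pow_succ']
    obtain ⟨a, h3, h4⟩ := key g
    rw [h1] at h4
    have ha : Even a := by
      by_contra hodd
      rw [Nat.not_even_iff_odd] at hodd
      rw [hodd.neg_one_pow] at h4
      exact absurd h4 (by decide)
    obtain ⟨a', rfl⟩ := ha
    have h7 : (Abelianization.of g : Abelianization ↥(Cfsg.isometryGroup F (⇑Q))) = 1 := by
      rw [h3, pow_add, ← mul_pow, eRefl_sq]
      simp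
    rw [← MonoidHom.mem_ker, Abelianization.ker_of] at h7
    exact h7


theorem mem_omega_iff_rank_evenY (hQ : (polarBilin Q).Nondegenerate) (hY : HasY Q)
    (g : ↥(Cfsg.isometryGroup F (⇑Q))) :
    g ∈ Cfsg.Omega F (⇑Q) ↔ Even (((g : GL ι F) : Matrix ι ι F) - 1).rank := by
  rw [mem_omega_iff_char_twoY hQ hY, dicksonHomY_apply, dicksonSign_eq_one_iff]

/-- The elliptic form of dimension four satisfies `HasY`. -/
theorem hasY_minusOne {c d : F} (hcd : ∀ z₁ z₂ : F, z₁ ^ 2 + c * z₁ * z₂ + d * z₂ ^ 2 = 0 → z₁ = 0 ∧ z₂ = 0) :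
    HasY (Cfsg.Agent.Lib.Classical.Orth.Models.minusForm 1 F c d) := by
  intro a v ha0 hQa hQv hav
  set Q := Cfsg.Agent.Lib.Classical.Orth.Models.minusForm 1 F c d with hQdef
  have hQnd : (polarBilin Q).Nondegenerate := Cfsg.Agent.Lib.Classical.Orth.Models.minusForm_nondegenerate 1 c d hcd
  set B : LinearMap.BilinForm F ((Fin 1 ⊕ Fin 1) ⊕ Fin 2 → F) := polarBilin Q with hB
  have hBnd : B.Nondegenerate := hQnd
  have hsymm : B.IsSymm := ⟨fun x y => by
    simp only [hB, polarBilin_apply_apply, RingHom.id_apply]; exact polar_comm _ _ _⟩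
  have hrefl : B.IsRefl := hsymm.isRefl
  have hmemorth : ∀ (N : Submodule F ((Fin 1 ⊕ Fin 1) ⊕ Fin 2 → F)) (x : (Fin 1 ⊕ Fin 1) ⊕ Fin 2 → F),
      x ∈ B.orthogonal N ↔ ∀ n ∈ N, polar (⇑Q) n x = 0 := by
    intro N x
    simp only [LinearMap.BilinForm.mem_orthogonal_iff, LinearMap.BilinForm.isOrtho_def, hB,
      polarBilin_apply_apply]
  have hvnotmem : v ∉ Submodule.span F {a} := by
    intro h
    obtain ⟨e, he⟩ := Submodule.mem_span_singleton.1 h
    apply hQv
    rw [← he, Q_smul, hQa, mul_zero]
  -- y₀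
  obtain ⟨y₀, hy₀v, hy₀a⟩ : ∃ y₀, polar (⇑Q) v y₀ = 1 ∧ polar (⇑Q) a y₀ = 0 := by
    have : ∃ y₁, polar (⇑Q) a y₁ = 0 ∧ polar (⇑Q) v y₁ ≠ 0 := by
      by_contra hcon
      push Not at hcon
      apply hvnotmem
      have hor := LinearMap.BilinForm.orthogonal_orthogonal hBnd hrefl (Submodule.span F {a})
      rw [← hor, hmemorth]
      intro n hn
      rw [polar_comm]
      apply hcon
      have := (hmemorth _ _).1 hn a (Submodule.mem_span_singleton_self a)
      exact this
    obtain ⟨y₁, h1, h2⟩ := this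
    refine ⟨(polar (⇑Q) v y₁)⁻¹ • y₁, ?_, ?_⟩
    · rw [polar_smul_right']; field_simp
    · rw [polar_smul_right', h1, mul_zero]
  by_cases hy : Q y₀ = 0
  · exfalso
    have hind : LinearIndependent F ![a, y₀] := by
      rw [LinearIndependent.pair_iff]
      intro s t hst
      have h1 : polar (⇑Q) v (s • a + t • y₀) = 0 := by
        rw [hst, polar_zero_right]
      rw [polar_add_right, polar_smul_right', polar_smul_right', hy₀v, polar_comm (⇑Q) v a, hav, mul_zero, zero_add, mul_one] at h1
      subst h1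
      rw [zero_smul, add_zero] at hst
      exact ⟨(smul_eq_zero.1 hst).resolve_right ha0, rfl⟩
    have hfin := finrank_span_eq_card hind
    have hset : Set.range ![a, y₀] = {a, y₀} := by
      ext x
      constructor
      · rintro ⟨i, rfl⟩
        fin_cases i <;> simp
      · rintro (rfl | rfl)
        · exact ⟨0, rfl⟩
        · exact ⟨1, rfl⟩
    rw [hset, Fintype.card_fin] at hfin
    have hts : ∀ w ∈ Submodule.span F {a, y₀}, Cfsg.Agent.Lib.Linalg.OrthModels.minusQ 1 F c d w = 0 := by
      intro w hw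
      obtain ⟨α, β, rfl⟩ := Submodule.mem_span_pair.1 hw
      rw [Cfsg.Agent.Lib.Linalg.OrthModels.minusQ_apply, ← Cfsg.Agent.Lib.Classical.Orth.Models.coe_minusForm_apply]
      rw [Q_add, Q_smul, Q_smul, polar_smul_left', polar_smul_right', hQa, hy, hy₀a]
      ring
    have := Cfsg.Agent.Lib.Classical.Witt.Index.finrank_le_of_ts_minus 1 hcd _ hts
    omega
  · exact ⟨y₀, hy₀v, hy₀a, hy⟩

end CharTwo

end Cfsg.Agent.Lib.Classical.Witt.DicksonY
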